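/-
Offenders, part G: subnormal subgroups acting on a module; abelian offenders for `p = 2`.
-/
import Cfsg.Agent.Sig.OffF
import Cfsg.Agent.SolvStr.Subnormal
import Cfsg.Agent.Classical.SmallIso
set_option autoImplicit false
set_option linter.unusedSectionVars false

namespace CF.Sig
open Subgroup Cfsg CF.BG
open CF.PLocal (maxAb)
open scoped commutatorElement Pointwise MatrixGroups

variable {G : Type*} [Group G] {G' : Type*} [Group G']
variable [Finite G] {A B C D E H K L M N P Q R S T U V W X Y : Subgroup G} {p q r n : ℕ} {x y : G}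

theorem subN_sup (a : SubN A H) (b : SubN B H) : SubN (A ⊔ B) H := by
  refine subN_of_isSubnormal (sup_le a.le b.le) ?_
  rw [subgroupOf_sup a.le b.le]
  exact CF.SolvStr.isSubnormal_sup (subN_isSubnormal a) (subN_isSubnormal b)

theorem SubN.exists_normal (a : SubN A H) (h : A ≠ H) : ∃ K, A ≤ K ∧ K ⊴ H ∧ K ≠ H := by
  induction a with
  | refl => exact (h rfl).elim
  | @step K L a n ih =>
    by_cases e : K = L
    · subst e; exact ih h
    · exact ⟨K, a.le, n, e⟩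

theorem comm_normal_sup (A B : Subgroup G) : ⁅A, B⁆ ⊴ A ⊔ B :=
  ⟨(commutator_mono le_sup_left le_sup_right).trans (der_le _),
    sup_le (norm_comm_left _ _) (norm_comm_right _ _)⟩

theorem comm_le_O_of_subN (hp : p.Prime) (hV : Abelem p V) (n : H ≤ 𝐍 V) (f : H ⊓ 𝐂 V = ⊥)
    (a : SubN A H) (b : SubN B H) (c : ⁅V, A⁆ ≤ 𝐂 B) : ⁅A, B⁆ ≤ 𝐎 {p} H := by
  have s := (comm_normal_sup A B).subN.trans (subN_sup a b)
  have nW : A ⊔ B ≤ 𝐍 ⁅V, A⁆ := sup_le (norm_comm_right _ _) (norm_of_cent' c)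
  have c1 : ⁅A, B⁆ ≤ 𝐂 ⁅V, A⁆ := (commutator_mono le_rfl (cent_symm c)).trans
    (comm_le_right (norm_cent (norm_comm_right _ _)))
  have c2 : ⁅A, B⁆ ≤ centMod V ⁅V, A⁆ :=
    (commutator_mono (le_centMod.mpr ⟨norm_comm_right _ _, (commutator_comm _ _).le⟩) le_rfl).trans
      (comm_le_left (norm_centMod (b.le.trans n) (le_sup_right.trans nW)))
  refine subN_le_O s (abelem_of_quad hp hV (s.le.trans n) (eq_bot_mono f (inf_le_inf_right _ s.le))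
    (c1.trans (cent_anti ?_))).pi
  rw [commutator_comm]
  exact (le_centMod.mp c2).2

theorem irr_pair (hp : p.Prime) (hV : Abelem p V) (E : Subgroup G) : ∀ A B : Subgroup G,
    E ≤ 𝐍 V → E ⊓ 𝐂 V = ⊥ → E = A ⊔ B → SubN A E → SubN B E → 𝐎 {p} E = ⊥ →
    (∀ U, U ≤ ⁅V, A⁆ → A ≤ 𝐍 U → U = ⊥ ∨ U = ⁅V, A⁆) →
    (∀ U, U ≤ ⁅V, B⁆ → B ≤ 𝐍 U → U = ⊥ ∨ U = ⁅V, B⁆) → ¬ ⁅V, A⁆ ≤ ⁅V, B⁆ → ¬ ⁅V, B⁆ ≤ ⁅V, A⁆ →
    2 < ♯A → 2 < ♯B → ⁅A, B⁆ = ⊥ ∧ ⁅V, A⁆ ⊓ ⁅V, B⁆ = ⊥ := by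
  induction E using card_induction with
  | h E ih =>
  intro A B n f g a b o ia ib ab ba ca cb
  have easy : ∀ {A B : Subgroup G}, SubN A E → SubN B E →
      (∀ U, U ≤ ⁅V, B⁆ → B ≤ 𝐍 U → U = ⊥ ∨ U = ⁅V, B⁆) → ¬ ⁅V, B⁆ ≤ ⁅V, A⁆ → B ≤ 𝐍 ⁅V, A⁆ →
      ⁅A, B⁆ = ⊥ ∧ ⁅V, A⁆ ⊓ ⁅V, B⁆ = ⊥ := by
    intro A B a b ib ba h
    have i := (ib _ inf_le_right (norm_inf h (norm_comm_right _ _))).resolve_right
      fun e => ba (e.ge.trans inf_le_left)
    exact ⟨eq_bot_mono o (comm_le_O_of_subN hp hV n f a b (comm_eq_bot.mp (eq_bot_mono i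
      (le_inf (comm_le_left h) (commutator_mono (comm_le_left (a.le.trans n)) le_rfl))))), i⟩
  by_cases h1 : B ≤ 𝐍 ⁅V, A⁆
  · exact easy a b ib ba h1
  by_cases h2 : A ≤ 𝐍 ⁅V, B⁆
  · have := easy b a ia ab h2
    rwa [commutator_comm, inf_comm] at this
  exfalso
  have quad : ∀ {N : Subgroup G}, SubN N E → N ≤ 𝐂 ⁅V, N⁆ → N = ⊥ := fun s c =>
    eq_bot_mono o (subN_le_O s (abelem_of_quad hp hV (s.le.trans n)
      (eq_bot_mono f (inf_le_inf_right _ s.le)) c).pi)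
  have conj : ∀ {A : Subgroup G}, SubN A E →
      (∀ U, U ≤ ⁅V, A⁆ → A ≤ 𝐍 U → U = ⊥ ∨ U = ⁅V, A⁆) → 2 < ♯A → ∀ g ∈ E, g ∉ 𝐍 ⁅V, A⁆ →
      ⁅V, A⁆ ⊓ cj g ⁅V, A⁆ = ⊥ ∧ cj g ⁅V, A⁆ ≤ 𝐂 A := by
    intro A a ia ca g hg ng
    have e : cj g ⁅V, A⁆ = ⁅V, cj g A⁆ := by rw [cj_comm, cj_of_norm (n hg)]
    have a' : SubN (cj g A) E := by have := subN_cj a g; rwa [cj_of_mem hg] at this
    obtain ⟨K, k1, k2, k3⟩ := SubN.exists_normal a (by
      rintro rfl; exact ng (norm_comm_right _ _ hg))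
    have l : A ⊔ cj g A ≤ K := sup_le k1 (cj_le_of_norm (k2.norm hg) k1)
    have s := subN_sup a a'
    have ne : ⁅V, cj g A⁆ ≠ ⁅V, A⁆ := fun e1 => ng (cj_eq_self.mp (e.trans e1))
    have ec : ♯⁅V, cj g A⁆ = ♯⁅V, A⁆ := by rw [← e, card_cj]
    obtain ⟨c1, c2⟩ := ih (A ⊔ cj g A) (card_lt (l.trans_lt (lt_of_le_of_ne k2.le k3))) A (cj g A)
      (s.le.trans n) (eq_bot_mono f (inf_le_inf_right _ s.le)) rfl
      (subN_of_le a le_sup_left s.le) (subN_of_le a' le_sup_right s.le)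
      (eq_bot_mono o (s.O_le _)) ia (fun U hU nU => by
        rw [← e] at hU ⊢
        rcases ia (cj g⁻¹ U) (le_cj_iff.mp hU) (by
          rw [← cj_norm, ← cj_le_iff]; exact nU) with e1 | e1
        · exact Or.inl (by rw [← cj_cj_inv g U, e1, cj_bot])
        · exact Or.inr (by rw [← e1, cj_cj_inv]))
      (fun l => ne (eq_of_card_eq l ec.symm).symm) (fun l => ne (eq_of_card_eq l ec)) ca
      (by rwa [card_cj])
    rw [e]
    refine ⟨c2, comm_eq_bot.mp (eq_bot_mono c2 (le_inf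
      (commutator_mono (comm_le_left (a'.le.trans n)) le_rfl) (comm_le_left
        (norm_commutator (a.le.trans n) (norm_of_cent (comm_eq_bot.mp c1))))))⟩
  have card : ∀ {A B : Subgroup G}, A ≤ E → B ≤ E → ∀ g ∈ B, ⁅V, A⁆ ⊓ cj g ⁅V, A⁆ = ⊥ →
      ♯⁅V, A⁆ ≤ ♯⁅V, B⁆ ∧ (♯⁅V, B⁆ ≤ ♯⁅V, A⁆ → ∀ w ∈ ⁅V, B⁆, ∃ v ∈ ⁅V, A⁆, ⁅v, g⁆ = w) := by
    intro A B a b g hg i
    have lA := comm_le_left (a.trans n)
    let φ : ↥⁅V, A⁆ → ↥⁅V, B⁆ := fun v => ⟨⁅(v : G), g⁆, commutator_mem_commutator (lA v.2) hg⟩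
    have hφ : Function.Injective φ := by
      intro v w e
      have e1 : ⁅(v : G), g⁆ = ⁅(w : G), g⁆ := congrArg Subtype.val e
      have e2 : (w : G)⁻¹ * v = g * ((w : G)⁻¹ * v) * g⁻¹ := by
        rw [commutatorElement_def, commutatorElement_def] at e1
        calc (w : G)⁻¹ * v = (w : G)⁻¹ * (v * g * (v : G)⁻¹ * g⁻¹) * (g * v * g⁻¹) := by group
          _ = _ := by rw [e1]; group
      have m : (w : G)⁻¹ * v ∈ ⁅V, A⁆ := mul_mem (inv_mem w.2) v.2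
      have := eq_one_of_mem_bot i ⟨m, by rw [e2]; exact conj_mem_cj.mpr m⟩
      exact Subtype.ext (inv_mul_eq_one.mp this).symm
    refine ⟨Nat.card_le_card_of_injective φ hφ, fun l w hw => ?_⟩
    obtain ⟨v, hv⟩ := (hφ.bijective_of_nat_card_le l).2 ⟨w, hw⟩
    exact ⟨v, v.2, congrArg Subtype.val hv⟩
  obtain ⟨x, hx, nx⟩ := SetLike.not_le_iff_exists.mp h1
  obtain ⟨y, hy, ny⟩ := SetLike.not_le_iff_exists.mp h2
  have kx := (card a.le b.le x hx (conj a ia ca x (b.le hx) nx).1).2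
    (card b.le a.le y hy (conj b ib cb y (a.le hy) ny).1).1
  set W := ⁅V, A⁆ with hW
  have lW : W ≤ V := comm_le_left (a.le.trans n)
  have cW : W ⊓ 𝐂 A = ⊥ := (ia _ inf_le_left (norm_inf (norm_comm_right _ _)
    (norm_cent (le_norm_self _)))).resolve_right fun e => by
      have := quad a (cent_symm (e.ge.trans inf_le_right))
      rw [this, card_bot] at ca; omega
  have lB : ⁅V, B⁆ ≤ W ⊔ cj x W := fun w hw => by
    obtain ⟨v, hv, rfl⟩ := kx w hw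
    rw [commutatorElement_def, mul_assoc, mul_assoc, ← mul_assoc x]
    exact mul_mem (mem_sup_left hv) (mem_sup_right (conj_mem_cj.mpr (inv_mem hv)))
  have iB : W ⊓ ⁅V, B⁆ = ⊥ := eq_bot_of_forall fun w hw => by
    obtain ⟨v, hv, rfl⟩ := kx w hw.2
    have m : x * v⁻¹ * x⁻¹ ∈ W := by
      have := mul_mem (inv_mem hv) hw.1
      rwa [commutatorElement_def, mul_assoc v, mul_assoc v, inv_mul_cancel_left] at this
    have := eq_one_of_mem_bot (conj a ia ca x (b.le hx) nx).1 ⟨m, conj_mem_cj.mpr (inv_mem hv)⟩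
    rw [commutatorElement_def, mul_assoc, mul_assoc, ← mul_assoc x, this]
    simpa using this
  have key : ∀ z ∈ B, z ∉ 𝐍 W → x⁻¹ * z ∈ 𝐍 W := by
    intro z hz nz
    have l1 : cj z W ≤ W ⊔ cj x W := by
      intro w hw
      obtain ⟨v, hv, rfl⟩ := mem_cj_iff.mp hw
      have : z * v * z⁻¹ = ⁅v, z⁆⁻¹ * v⁻¹⁻¹ := by
        rw [← hV.abel.mul_comm (inv_mem (inv_mem (lW hv)))
          (inv_mem (comm_le_left (b.le.trans n) (commutator_mem_commutator (lW hv) hz))),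
          commutatorElement_def]
        have := hV.abel.mul_comm (lW hv) (conj_mem_of_norm (n (b.le hz)) (lW hv))
        calc z * v * z⁻¹ = v * (z * v * z⁻¹) * v⁻¹ := by rw [this]; group
          _ = _ := by group
      rw [this]
      exact mul_mem (inv_mem (lB (commutator_mem_commutator (lW hv) hz)))
        (mem_sup_left (inv_mem (inv_mem hv)))
    have l2 : cj z W ≤ cj x W := by
      refine (le_inf l1 (conj a ia ca z (b.le hz) nz).2).trans ?_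
      rw [sup_inf_right (conj a ia ca x (b.le hx) nx).2 (Or.inl (norm_of_cent
        (hV.abel.cent lW (cj_le_of_norm (n (b.le hx)) lW)))), cW, bot_sup_eq]
    rw [le_cj_iff, cj_cj] at l2
    exact mem_norm_of_cj_le l2
  have cN : B ⊓ 𝐍 W ≤ 𝐂 W := comm_eq_bot'.mp (eq_bot_mono iB (le_inf (comm_le_left inf_le_right)
    (commutator_mono lW inf_le_left)))
  have hN : B ⊓ 𝐍 W = ⊥ := by
    have k : ∀ z ∈ B ⊓ 𝐍 W, x⁻¹ * z * x ∈ B ⊓ 𝐍 W := fun z hz =>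
      mem_inf.mpr ⟨mul_mem (mul_mem (inv_mem hx) hz.1) hx, by
        rw [mul_assoc]
        exact key _ (mul_mem hz.1 hx) fun c => nx (by
          simpa using mul_mem (inv_mem (mem_inf.mp hz).2) c)⟩
    have nN : B ≤ 𝐍 (B ⊓ 𝐍 W) := le_norm_iff.mpr fun z hz w hw => by
      by_cases c : z⁻¹ ∈ 𝐍 W
      · exact conj_mem_of_norm (le_norm_self _ (mem_inf.mpr ⟨hz, by simpa using c⟩)) hw
      · have m : x⁻¹ * z⁻¹ ∈ B ⊓ 𝐍 W :=
          mem_inf.mpr ⟨mul_mem (inv_mem hx) (inv_mem hz), key _ (inv_mem hz) c⟩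
        have : z * w * z⁻¹ = (x⁻¹ * z⁻¹)⁻¹ * (x⁻¹ * w * x) * (x⁻¹ * z⁻¹) := by group
        rw [this]
        exact mul_mem (mul_mem (inv_mem m) (k w hw)) m
    refine quad ((NormalIn.subN ⟨inf_le_left, nN⟩).trans b) ((le_cent_sup cN fun z hz => ?_).trans
      (cent_anti ((commutator_mono le_rfl inf_le_left).trans lB)))
    rw [← cj_cent, mem_cj]
    exact cN (k z hz)
  have : ♯B ≤ 2 := by
    have hs : (B : Set G) ⊆ {1, x} := fun z hz => by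
      by_cases c : z ∈ 𝐍 W
      · exact Or.inl (eq_one_of_mem_bot hN ⟨hz, c⟩)
      · exact Or.inr (inv_mul_eq_one.mp (eq_one_of_mem_bot hN
          (mem_inf.mpr ⟨mul_mem (inv_mem hx) hz, key z hz c⟩))).symm
    exact (Set.ncard_le_ncard hs).trans ((Set.ncard_insert_le _ _).trans (by simp))
  omega

theorem exists_comm_mem (hP : PiGrp {p} P) (hK : PiGrp {p} K) (n : P ≤ 𝐍 K) (h : L < K)
    (a : P ≤ 𝐍 L) (b : K ≤ 𝐍 L) : ∃ u ∈ K, u ∉ L ∧ ∀ x ∈ P, ⁅x, u⁆ ∈ L := by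
  obtain ⟨z, hz, z1⟩ := exists_mem_ne_one (PiGrp.inf_cent_ne_bot (hP.qt L) (hK.qt L) (qt_norm L n)
    fun e => h.not_ge ((qt_eq_bot b).mp e))
  obtain ⟨u, hu, nu, rfl⟩ := mem_qt.mp hz.1
  refine ⟨u, hu, fun c => z1 (qe_of_mem c), fun x hx => ?_⟩
  rw [← qe_eq_one (commutatorElement_def x u ▸ mul_mem (mul_mem (mul_mem (a hx) nu) (inv_mem (a hx)))
    (inv_mem nu)), qe_comm (a hx) nu, commutatorElement_eq_one_iff_mul_comm]
  exact mem_cent.mp hz.2 _ (qe_mem_qt hx (a hx))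

theorem OS.cent_lt (h : OS p V H) (hA : A ≤ H) (a : Abel A) (k : PiGrp {p} A) (b : B ≤ A)
    (e : ¬ 𝐎 {p}ᶜ H ⊓ 𝐂 B ≤ 𝐂 A) : V ⊓ 𝐂 A < V ⊓ 𝐂 B := by
  have nK : A ≤ 𝐍 (𝐎 {p}ᶜ H ⊓ 𝐂 B) := Abel.norm_inf_cent a b (le_norm_O _ (norm_of_le hA))
  have hK : 𝐎 {p}ᶜ H ⊓ 𝐂 B ≤ H := inf_le_left.trans (O_le _ _)
  have hR : ⁅𝐎 {p}ᶜ H ⊓ 𝐂 B, A⁆ ≤ 𝐎 {p}ᶜ H ⊓ 𝐂 B := comm_le_left nK
  refine lt_of_le_of_ne (inf_le_inf_left _ (cent_anti b)) fun e1 => e ?_
  have c1 : A ≤ 𝐂 (V ⊓ 𝐂 B) := cent_symm (e1 ▸ inf_le_right)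
  have c2 : ⁅𝐎 {p}ᶜ H ⊓ 𝐂 B, A⁆ ≤ 𝐂 (V ⊓ 𝐂 B) :=
    (commutator_mono le_rfl c1).trans (comm_le_right (norm_cent (norm_inf_cent (hK.trans h.norm)
      (norm_of_cent inf_le_right))))
  have c3 := cent_of_pxq (k.le b) h.ab.pi (((O_pi _ _).le inf_le_left).le hR)
    (cent_symm (hR.trans inf_le_right)) ((b.trans hA).trans h.norm)
    ((hR.trans hK).trans h.norm) (cent_symm c2)
  exact comm_eq_bot.mp (h.eq_bot (hR.trans hK) c3)

/-- abelian best offenders for `p = 2` are elementary -/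
theorem OS.abelem_two (h : OS 2 V H) (A : Subgroup G) : A ≤ H → Abel A → PiGrp {2} A → BO V A →
    Abelem 2 A := by
  induction A using card_induction with
  | h A ih =>
  intro hA a k o
  by_cases h1 : A = ⊥
  · rw [h1]; exact abelem_bot 2
  have nQ : A ≤ 𝐍 (𝐎 {2}ᶜ H) := le_norm_O _ (norm_of_le hA)
  obtain ⟨B, hB, cB, e⟩ : ∃ B, B ≤ A ∧ Cyc (qt B A) ∧ ¬ 𝐎 {2}ᶜ H ⊓ 𝐂 B ≤ 𝐂 A := by
    by_contra c
    push Not at c
    exact h.not_cent hA k h1 (a.le_of_cocyc nQ (k.coprime (O_pi _ _)) c)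
  obtain ⟨x, hx, l⟩ := (cyc_qt_iff (a.le_norm hB)).mp cB
  obtain ⟨u, hu, nu, cu⟩ := exists_comm_mem k h.ab.pi.inf_left
    (Abel.norm_inf_cent a hB (hA.trans h.norm)) (h.cent_lt hA a k hB e)
    (norm_of_cent' inf_le_right) (norm_of_cent (h.abel.cent inf_le_left inf_le_left))
  set A₁ := B ⊔ zpowers (x ^ 2) with e1
  have l1 : A₁ ≤ A := sup_le hB (zpowers_le.mpr (pow_mem hx 2))
  have c1 : u ∈ 𝐂 A₁ := by
    rw [e1, cent_sup, cent_zpowers]
    refine ⟨hu.2, mem_cent1.mpr ?_⟩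
    have h2 := h.ab.pow _ (cu x hx).1
    have h3 := mem_cent.mp (cu x hx).2 x hx
    have h4 : x * u = ⁅x, u⁆ * u * x := by rw [commutatorElement_def]; group
    calc u * x ^ 2 = ⁅x, u⁆ ^ 2 * u * x * x := by rw [h2, sq]; group
      _ = ⁅x, u⁆ * (x * u) * x := by rw [h4, sq]; group
      _ = x * (⁅x, u⁆ * u * x) := by rw [← mul_assoc, ← h3]; group
      _ = x ^ 2 * u := by rw [← h4, sq]; group
  have lt : V ⊓ 𝐂 A < V ⊓ 𝐂 A₁ := lt_of_le_of_ne (inf_le_inf_left _ (cent_anti l1))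
    fun e2 => nu (e2.ge ⟨hu.1, c1⟩)
  have n1 := a.le_norm l1
  have d : A₁.relIndex A ∣ 2 := by
    rw [← card_qt n1]
    have : qt A₁ A ≤ zpowers (qe A₁ x) := by
      rw [← qt_zpowers (n1 hx), qt_le_qt_iff n1 ((zpowers_le.mpr hx).trans n1)]
      exact l.trans (sup_le_sup_right le_sup_left _)
    refine (card_dvd this).trans ?_
    rw [Nat.card_zpowers]
    refine orderOf_dvd_of_pow_eq_one ?_
    rw [← qe_pow (n1 hx)]
    exact qe_of_mem (mem_sup_right (mem_zpowers _))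
  have sq : ∀ {X Y : Subgroup G}, X.relIndex Y ∣ 2 → ∀ y ∈ Y, y ^ 2 ∈ X := fun d y hy =>
    (pow_mem_of_relIndex_ne_zero_of_dvd (relIndex_ne_zero' _ _) hy fun m m0 m1 => by
      have := m1.trans (Nat.le_of_dvd two_pos d)
      interval_cases m <;> norm_num).1
  have o1 : BO V A₁ := fun C hC => (o C (hC.trans l1)).trans (by
    rw [← card_mul_relIndex l1, mul_assoc]
    exact Nat.mul_le_mul_left _ ((Nat.mul_le_mul_right _ (Nat.le_of_dvd two_pos d)).trans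
      (PiGrp.mul_card_le h.ab.pi.inf_left lt)))
  have a1 := ih A₁ (card_lt (lt_of_le_of_ne l1 fun e2 => lt.ne (by rw [e2]))) (l1.trans hA)
    (a.mono l1) (k.le l1) o1
  refine Abelem.mk' Nat.prime_two a fun y hy => ?_
  have m := zpowers_le.mpr (sq d y hy)
  have nZ : A ≤ 𝐍 (𝐎 {2}ᶜ H ⊓ 𝐂 (zpowers (y ^ 2))) := Abel.norm_inf_cent a (m.trans l1) nQ
  have l2 : A₁ ≤ centMod (𝐎 {2}ᶜ H) (𝐎 {2}ᶜ H ⊓ 𝐂 (zpowers (y ^ 2))) := by
    refine (h.le_sSup_tv (l1.trans hA) a1 o1).trans (sSup_le fun T hT =>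
      le_centMod.mpr ⟨(hT.1.trans l1).trans nZ, ?_⟩)
    rw [commutator_comm]
    refine le_inf (h.D_le hT.2) (cent_symm (zpowers_le.mpr (sq (Y := A) ?_ y hy)))
    have c3 := ((h.Bk_npc hT.2).resolve_right (by omega)).2
    have := relIndex_cent_dvd_pred (by rw [c3]; exact Nat.prime_three)
      (norm_commutator nQ (a.le_norm (hT.1.trans l1)))
    rwa [c3] at this
  by_contra c
  refine h.not_cent ((m.trans l1).trans hA) (k.le (m.trans l1)) (by rwa [Ne, zpowers_eq_bot])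
    (cent_symm (cent_of_comm_le_cent ((m.trans l1).trans nQ) ((k.le (m.trans l1)).coprime
      (O_pi _ _)) ?_))
  rw [commutator_comm]
  exact (le_centMod.mp (m.trans l2)).2.trans inf_le_right

/-- a product of blocks is a direct power -/
theorem OS.equiv_pi (h : OS p V H) {S : Set (Subgroup G)} (hS : ∀ T ∈ S, Tv p V H T)
    {Z : Type*} [Group Z] (e : ∀ T ∈ S, Nonempty (Bk p H T ≃* Z)) :
    ∃ n : ℕ, Nonempty (↥(sSup (Bk p H '' S)) ≃* (Fin n → Z)) := by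
  classical
  obtain ⟨n, ⟨f⟩⟩ := Finite.exists_equiv_fin (Bk p H '' S)
  let E : Fin n → Subgroup G := fun i => (f.symm i).1
  have k : ∀ i, ∃ T ∈ S, Bk p H T = E i := fun i => (f.symm i).2
  have inj : ∀ i j, E i = E j → i = j := fun i j e => f.symm.injective (Subtype.ext e)
  have comm : Pairwise fun i j => ∀ x y : G, x ∈ E i → y ∈ E j → Commute x y := by
    intro i j hij x y hx hy
    obtain ⟨A, hA, a⟩ := k i
    obtain ⟨B, hB, b⟩ := k j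
    exact (mem_cent.mp (h.Bk_cent_of_ne (hS A hA) (hS B hB)
      (fun e => hij (inj i j (a.symm.trans (e.trans b)))) (a.ge hx)) y (b.ge hy)).symm
  have ind : iSupIndep E := fun i => by
    obtain ⟨A, hA, a⟩ := k i
    rw [disjoint_iff]
    refine eq_bot_mono (h.Bk_faith (hS A hA)) (inf_le_inf a.ge (iSup₂_le fun j hj => ?_))
    obtain ⟨B, hB, b⟩ := k j
    exact b.ge.trans (cent_symm (h.W_cent_of_ne (hS A hA) (hS B hB)
      fun e => hj (inj j i (b.symm.trans (e.symm.trans a)))))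
  have r : (noncommPiCoprod comm).range = sSup (Bk p H '' S) := by
    rw [noncommPiCoprod_range]
    exact le_antisymm (iSup_le fun i => le_sSup (f.symm i).2)
      (sSup_le fun X hX => le_iSup_of_le (f ⟨X, hX⟩) (by simp [E]))
  refine ⟨n, ⟨((MulEquiv.subgroupCongr r).symm.trans (MonoidHom.ofInjective
    (injective_noncommPiCoprod_of_iSupIndep ind)).symm).trans (MulEquiv.piCongrRight fun i => ?_)⟩⟩
  exact (MulEquiv.subgroupCongr (k i).choose_spec.2.symm).trans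
    (e _ (k i).choose_spec.1).some

end CF.Sig
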